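import Cfsg.Agent.H58.Util4
import Cfsg.Agent.H96.TModel

/-! Orders of normalisers and centralisers in a network model. -/

set_option autoImplicit false

namespace Cfsg.Agent.H80

open Subgroup H58 H96

variable {G : Type*} [Group G]

/-- the homomorphism `ZMod n → G` sending `1` to `a` -/
def cyc (n : ℕ) [NeZero n] (a : G) (h : a ^ n = 1) : Multiplicative (ZMod n) →* G :=
  MonoidHom.mk' (fun s => a ^ s.toAdd.val) fun s t => by
    rw [toAdd_mul, ZMod.val_add, ← pow_eq_pow_mod _ h, pow_add]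

theorem cyc_one (n : ℕ) [NeZero n] (a : G) (h : a ^ n = 1) :
    cyc n a h (Multiplicative.ofAdd 1) = a := by
  show a ^ (1 : ZMod n).val = a
  rw [← Nat.cast_one, ZMod.val_natCast, ← pow_eq_pow_mod _ h, pow_one]

theorem card_le_relIndex [Finite G] {X K : Subgroup G} {ι : Type*} (e : ι → G) (he : ∀ i, e i ∈ K)
    (hd : ∀ i j, (e i)⁻¹ * e j ∈ X → i = j) : Nat.card ι ≤ X.relIndex K :=
  Nat.card_le_card_of_injective (fun i => ((⟨e i, he i⟩ : K) : K ⧸ X.subgroupOf K))
    fun i j h => hd i j (QuotientGroup.eq (s := X.subgroupOf K) |>.1 h)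

theorem relIndex_mul_card' (X K : Subgroup G) : X.relIndex K * Nat.card ↥(K ⊓ X) = Nat.card K := by
  rw [← inf_relIndex_right, inf_comm, ← Nat.card_congr (subgroupOfEquivOfLe inf_le_left).toEquiv]
  exact index_mul_card _

theorem relIndex_normalizer_modEq [Finite G] {p : ℕ} [Fact p.Prime] (P : Sylow p G) {K : Subgroup G}
    (h : (P : Subgroup G) ≤ K) : (normalizer ((P : Subgroup G) : Set G)).relIndex K ≡ 1 [MOD p] := by
  have h1 := (P.subtype h).card_eq_index_normalizer
  rw [← Sylow.coe_coe, P.coe_subtype, ← subgroupOf_normalizer_eq h] at h1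
  rw [relIndex, ← h1]
  exact card_sylow_modEq_one p K

/-- an isomorphism can be chosen to match given Sylow subgroups -/
theorem exists_equiv_sylow {S : Type*} [Group S] [Finite G] [Finite S] {p : ℕ} [Fact p.Prime]
    (f : G ≃* S) (P : Sylow p G) (Q : Sylow p S) :
    ∃ F : G ≃* S, (P : Subgroup G).map F.toMonoidHom = Q := by
  obtain ⟨g, hg⟩ := MulAction.exists_smul_eq S (P.mapSurjective (f := f.toMonoidHom) f.surjective) Q
  refine ⟨f.trans (MulAut.conj g), ?_⟩
  rw [← hg]
  exact (map_map _ (MulAut.conj g).toMonoidHom f.toMonoidHom).symm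

theorem map_centralizer {S : Type*} [Group S] (F : G ≃* S) (P : Subgroup G) :
    (centralizer (P : Set G)).map F.toMonoidHom = centralizer (P.map F.toMonoidHom : Set S) := by
  ext x
  obtain ⟨x, rfl⟩ := F.surjective x
  refine (mem_map_iff_mem F.injective).trans ⟨?_, fun h y hy => F.injective ?_⟩
  · rintro h _ ⟨y, hy, rfl⟩
    exact (map_mul F _ _).symm.trans ((congrArg F (h y hy)).trans (map_mul F _ _))
  · exact (map_mul F _ _).trans ((h _ ⟨y, hy, rfl⟩).trans (map_mul F _ _).symm)

/-- a normal Hall subgroup with a known complement -/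
theorem quot_equiv [Finite G] {A : Type*} [Group A] {P N : Subgroup G} (hP : P ≤ N)
    [(P.subgroupOf N).Normal] (ψ : A →* G) (hi : Function.Injective ψ) (hr : ∀ a, ψ a ∈ N)
    (hc : (Nat.card P).Coprime (Nat.card A)) (hle : Nat.card N ≤ Nat.card A * Nat.card P) :
    Nat.card N = Nat.card A * Nat.card P ∧ Nonempty (N ⧸ P.subgroupOf N ≃* A) := by
  let θ := (QuotientGroup.mk' (P.subgroupOf N)).comp (ψ.codRestrict N hr)
  have h1 : Function.Injective θ := (injective_iff_map_eq_one _).2 fun a ha => by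
    have h2 : ψ a ∈ P := (QuotientGroup.eq_one_iff (N := P.subgroupOf N) _).1 ha
    have h3 := P.orderOf_dvd_natCard h2
    rw [orderOf_injective ψ hi] at h3
    exact orderOf_eq_one_iff.1 (Nat.eq_one_of_dvd_coprimes hc h3 (orderOf_dvd_natCard a))
  have h2 : Nat.card A ≤ (P.subgroupOf N).index := Nat.card_le_card_of_injective _ h1
  have h3 := (P.subgroupOf N).index_mul_card
  rw [Nat.card_congr (subgroupOfEquivOfLe hP).toEquiv] at h3
  have h4 : (P.subgroupOf N).index = Nat.card A :=
    le_antisymm (Nat.le_of_mul_le_mul_right (h3 ▸ hle) Nat.card_pos) h2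
  have : Finite A := Finite.of_injective _ hi
  exact ⟨h4 ▸ h3.symm, ⟨(MulEquiv.ofBijective θ
    ((Nat.bijective_iff_injective_and_card θ).2 ⟨h1, h4.symm⟩)).symm⟩⟩

theorem injective_of_card_le {A : Type*} [Group A] [Finite A] (ψ : A →* G)
    (h : Nat.card A ≤ Nat.card ψ.range) : Function.Injective ψ :=
  Subtype.val_injective.comp ((Nat.bijective_iff_surjective_and_card ψ.rangeRestrict).2
    ⟨ψ.rangeRestrict_surjective, le_antisymm h
      (Nat.card_le_card_of_surjective _ ψ.rangeRestrict_surjective)⟩).1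

/-- the mask of a list of points -/
def maskOf (l : List ℕ) : ℕ := l.foldr (fun j r => 2 ^ j ||| r) 0

theorem testBit_maskOf (l : List ℕ) (j : ℕ) : (maskOf l).testBit j = true ↔ j ∈ l := by
  induction l with
  | nil => simp [maskOf]
  | cons a l ih =>
    rw [maskOf, List.foldr_cons, Nat.testBit_or, Bool.or_eq_true, Nat.testBit_two_pow, List.mem_cons]
    exact or_congr (by simp [eq_comm]) ih

/-- a word in the words `ws` -/
def sub (ws : List (List ℕ)) (s : List ℕ) : List ℕ := (s.map fun i => ws.getD i []).flatten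

/-- the values of the words `ws` as letters -/
def lt (el : ℕ → G) (ws : List (List ℕ)) (i : ℕ) : G := wv el (ws.getD i [])

theorem wv_sub (el : ℕ → G) (ws : List (List ℕ)) (s : List ℕ) :
    wv el (sub ws s) = (s.map (lt el ws)).prod := by
  rw [sub, wv_flatten, List.map_map]; rfl

variable (M : Model G)

theorem rels_of (hinj : Function.Injective M.φ) {b : ℕ} (hb : M.N ≤ 2 ^ b) {ws : List (List ℕ)}
    {prs : List (List ℕ × List ℕ)}
    (he : ∀ t < b, eqsAt M.nets M.N b (prs.map fun p => (sub ws p.1, sub ws p.2)) t = 0) :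
    ∀ p ∈ prs, (p.1.map (lt M.el ws)).prod = (p.2.map (lt M.el ws)).prod := fun p hp => by
  rw [← wv_sub, ← wv_sub]
  exact M.wv_eq hinj hb he _ (List.mem_map_of_mem hp)

theorem mem_fixW {b : ℕ} (hb : M.N ≤ 2 ^ b) {w l : List ℕ}
    (h : fixM M.nets M.N b w ||| maskOf l = maskOf l) {j : ℕ} (hj : j < M.N)
    (hw : M.φ (wv M.el w) j = j) : j ∈ l := by
  rw [← testBit_maskOf, ← h, Nat.testBit_or, (testBit_fixM M.hN hb w j).2 ⟨hj, M.φ_wv w ▸ hw⟩,
    Bool.true_or]

theorem mem_fixK_of {ws : List (List ℕ)} {l : List ℕ} (h : fixErr M.nets ws l = 0) :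
    ∀ w ∈ ws, wv M.el w ∈ M.fixK ⊤ l := fun _ hw =>
  M.mem_fixK.2 ⟨trivial, fun q hq => M.clW_le_St (fixErr_zero h q hq) (wv_mem_clW _ hw)⟩

theorem fixK_eq (X : Subgroup G) (l : List ℕ) : M.fixK X l = M.fixK ⊤ l ⊓ X := by
  ext g; simp [M.mem_fixK, and_comm]

theorem orb_mul_card (K : Subgroup G) (p : ℕ) :
    (M.orb K p).ncard * Nat.card ↥(K ⊓ M.St p) = Nat.card K := by
  rw [← M.relIndex_St, relIndex_mul_card']

/-- conjugates fix the translated points -/
theorem conj_fix {x g : G} {j : ℕ} (h : M.φ g j = j) : M.φ (x * g * x⁻¹) (M.φ x j) = M.φ x j := by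
  rw [map_mul, map_mul, map_inv, Equiv.Perm.mul_apply, Equiv.Perm.mul_apply, pinv_self, h]

variable [Finite G]

/-- upper bound for a pointwise stabiliser -/
theorem lev_le {prev : List ℕ} {p : ℕ} {ws : List (List ℕ)} {sched : List ℕ} {k n m : ℕ}
    (h1 : fixErr M.nets ws prev = 0) (h2 : orbErr M.nets ws sched p k n = 0) (hn : 0 < n)
    (hm : Nat.card (M.fixK ⊤ prev) ≤ n * m) : Nat.card (M.fixK ⊤ (p :: prev)) ≤ m :=
  Nat.le_of_mul_le_mul_left (((Nat.mul_le_mul_right _ (M.le_ncard_orb (mem_fixK_of M h1) h2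
    (M.orb_finite' _ _))).trans_eq (orb_mul_card M _ p)).trans hm) hn

omit [Finite G] in
/-- upper bound for a group whose orbit is confined to a list -/
theorem step_le {X : Subgroup G} {prev : List ℕ} {p : ℕ} (L : List ℕ) {n m : ℕ}
    (hp : (!prev.contains p && Nat.ble (L.filter fun j => !prev.contains j).length n) = true)
    (h : ∀ x ∈ M.fixK X prev, M.φ x p ∈ L) (hm : Nat.card (M.fixK X (p :: prev)) ≤ m) :
    Nat.card (M.fixK X prev) ≤ n * m := by
  simp only [Bool.and_eq_true, Bool.not_eq_true', Nat.ble_eq, List.contains_eq_mem,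
    decide_eq_false_iff_not] at hp
  rw [← orb_mul_card M _ p]
  refine Nat.mul_le_mul (le_trans ?_ ((List.toFinset_card_le _).trans hp.2)) hm
  rw [← Set.ncard_coe_finset]
  refine Set.ncard_le_ncard ?_ (Finset.finite_toSet _)
  rintro _ ⟨x, hx, rfl⟩
  simp only [List.coe_toFinset, Set.mem_ofPred_eq, List.mem_filter, h x hx, true_and,
    Bool.not_eq_true', decide_eq_false_iff_not]
  intro hq
  exact hp.1 ((M.φ x).injective ((M.mem_fixK.1 hx).2 _ hq) ▸ hq)

/-- different translates of an invariant mask bound the index from below -/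
theorem le_relIndex_masks {X K : Subgroup G} {R : ℕ}
    (hX : ∀ x ∈ X, ∀ j, R.testBit j = true → R.testBit (M.φ x j) = true) {ws : List (List ℕ)}
    (hws : ∀ w ∈ ws, wv M.el w ∈ K) (nd : (ws.map fun w => appW M.nets w R).Nodup) :
    ws.length ≤ X.relIndex K := by
  have h1 : ∀ x ∈ X, ∀ j, R.testBit (M.φ x j) = R.testBit j := fun x hx j =>
    Bool.eq_iff_iff.2 ⟨fun h => by simpa using hX _ (X.inv_mem hx) _ h, hX x hx j⟩
  refine (Nat.card_fin _).ge.trans (card_le_relIndex (fun i => (wv M.el (ws.get i))⁻¹)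
    (fun i => K.inv_mem (hws _ (List.get_mem _ _))) fun i j h => ?_)
  refine List.nodup_iff_injective_get.1 (List.Nodup.of_map _ nd)
    (List.inj_on_of_nodup_map nd (List.get_mem _ _) (List.get_mem _ _) ?_)
  refine Nat.eq_of_testBit_eq fun q => ?_
  rw [testBit_appW M.hN, testBit_appW M.hN, ← M.φ_wv, ← M.φ_wv, ← h1 _ h (M.φ (wv M.el (ws.get j)) q)]
  simp

end Cfsg.Agent.H80
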